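import Cfsg.Agent.Lib.Helper11.Fi24a.Top

set_option autoImplicit false
set_option maxRecDepth 100000

namespace Cfsg.Agent.Lib.Helper11.Fi24a

set_option maxHeartbeats 0
theorem b104 : allR (guardB 17026 (blk fc sc rt.get INV isH)) 6 6656 = true := by decide +kernel
theorem b105 : allR (guardB 17026 (blk fc sc rt.get INV isH)) 6 6720 = true := by decide +kernel
theorem b106 : allR (guardB 17026 (blk fc sc rt.get INV isH)) 6 6784 = true := by decide +kernel
theorem b107 : allR (guardB 17026 (blk fc sc rt.get INV isH)) 6 6848 = true := by decide +kernel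
theorem b108 : allR (guardB 17026 (blk fc sc rt.get INV isH)) 6 6912 = true := by decide +kernel
theorem b109 : allR (guardB 17026 (blk fc sc rt.get INV isH)) 6 6976 = true := by decide +kernel
theorem b110 : allR (guardB 17026 (blk fc sc rt.get INV isH)) 6 7040 = true := by decide +kernel
theorem b111 : allR (guardB 17026 (blk fc sc rt.get INV isH)) 6 7104 = true := by decide +kernel

end Cfsg.Agent.Lib.Helper11.Fi24a
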