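import Cfsg.Agent.Lib.Helper11.Fi24a.Top

set_option autoImplicit false
set_option maxRecDepth 100000

namespace Cfsg.Agent.Lib.Helper11.Fi24a

set_option maxHeartbeats 0
theorem b112 : allR (guardB 17026 (blk fc sc rt.get INV isH)) 6 7168 = true := by decide +kernel
theorem b113 : allR (guardB 17026 (blk fc sc rt.get INV isH)) 6 7232 = true := by decide +kernel
theorem b114 : allR (guardB 17026 (blk fc sc rt.get INV isH)) 6 7296 = true := by decide +kernel
theorem b115 : allR (guardB 17026 (blk fc sc rt.get INV isH)) 6 7360 = true := by decide +kernel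
theorem b116 : allR (guardB 17026 (blk fc sc rt.get INV isH)) 6 7424 = true := by decide +kernel
theorem b117 : allR (guardB 17026 (blk fc sc rt.get INV isH)) 6 7488 = true := by decide +kernel
theorem b118 : allR (guardB 17026 (blk fc sc rt.get INV isH)) 6 7552 = true := by decide +kernel
theorem b119 : allR (guardB 17026 (blk fc sc rt.get INV isH)) 6 7616 = true := by decide +kernel

end Cfsg.Agent.Lib.Helper11.Fi24a
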