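import Cfsg.Agent.Lib.Helper11.Fi24a.Top

set_option autoImplicit false
set_option maxRecDepth 100000

namespace Cfsg.Agent.Lib.Helper11.Fi24a

set_option maxHeartbeats 0
theorem b120 : allR (guardB 17026 (blk fc sc rt.get INV isH)) 6 7680 = true := by decide +kernel
theorem b121 : allR (guardB 17026 (blk fc sc rt.get INV isH)) 6 7744 = true := by decide +kernel
theorem b122 : allR (guardB 17026 (blk fc sc rt.get INV isH)) 6 7808 = true := by decide +kernel
theorem b123 : allR (guardB 17026 (blk fc sc rt.get INV isH)) 6 7872 = true := by decide +kernel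
theorem b124 : allR (guardB 17026 (blk fc sc rt.get INV isH)) 6 7936 = true := by decide +kernel
theorem b125 : allR (guardB 17026 (blk fc sc rt.get INV isH)) 6 8000 = true := by decide +kernel
theorem b126 : allR (guardB 17026 (blk fc sc rt.get INV isH)) 6 8064 = true := by decide +kernel
theorem b127 : allR (guardB 17026 (blk fc sc rt.get INV isH)) 6 8128 = true := by decide +kernel

end Cfsg.Agent.Lib.Helper11.Fi24a
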