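import Cfsg.Agent.Lib.Helper11.Fi24a.Top

set_option autoImplicit false
set_option maxRecDepth 100000

namespace Cfsg.Agent.Lib.Helper11.Fi24a

set_option maxHeartbeats 0
theorem b128 : allR (guardB 17026 (blk fc sc rt.get INV isH)) 6 8192 = true := by decide +kernel
theorem b129 : allR (guardB 17026 (blk fc sc rt.get INV isH)) 6 8256 = true := by decide +kernel
theorem b130 : allR (guardB 17026 (blk fc sc rt.get INV isH)) 6 8320 = true := by decide +kernel
theorem b131 : allR (guardB 17026 (blk fc sc rt.get INV isH)) 6 8384 = true := by decide +kernel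
theorem b132 : allR (guardB 17026 (blk fc sc rt.get INV isH)) 6 8448 = true := by decide +kernel
theorem b133 : allR (guardB 17026 (blk fc sc rt.get INV isH)) 6 8512 = true := by decide +kernel
theorem b134 : allR (guardB 17026 (blk fc sc rt.get INV isH)) 6 8576 = true := by decide +kernel
theorem b135 : allR (guardB 17026 (blk fc sc rt.get INV isH)) 6 8640 = true := by decide +kernel

end Cfsg.Agent.Lib.Helper11.Fi24a
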