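import Cfsg.Agent.Lib.Helper11.Fi24a.Top

set_option autoImplicit false
set_option maxRecDepth 100000

namespace Cfsg.Agent.Lib.Helper11.Fi24a

set_option maxHeartbeats 0
theorem b136 : allR (guardB 17026 (blk fc sc rt.get INV isH)) 6 8704 = true := by decide +kernel
theorem b137 : allR (guardB 17026 (blk fc sc rt.get INV isH)) 6 8768 = true := by decide +kernel
theorem b138 : allR (guardB 17026 (blk fc sc rt.get INV isH)) 6 8832 = true := by decide +kernel
theorem b139 : allR (guardB 17026 (blk fc sc rt.get INV isH)) 6 8896 = true := by decide +kernel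
theorem b140 : allR (guardB 17026 (blk fc sc rt.get INV isH)) 6 8960 = true := by decide +kernel
theorem b141 : allR (guardB 17026 (blk fc sc rt.get INV isH)) 6 9024 = true := by decide +kernel
theorem b142 : allR (guardB 17026 (blk fc sc rt.get INV isH)) 6 9088 = true := by decide +kernel
theorem b143 : allR (guardB 17026 (blk fc sc rt.get INV isH)) 6 9152 = true := by decide +kernel

end Cfsg.Agent.Lib.Helper11.Fi24a
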