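import Cfsg.Agent.Lib.Helper11.Fi24a.Top

set_option autoImplicit false
set_option maxRecDepth 100000

namespace Cfsg.Agent.Lib.Helper11.Fi24a

set_option maxHeartbeats 0
theorem b144 : allR (guardB 17026 (blk fc sc rt.get INV isH)) 6 9216 = true := by decide +kernel
theorem b145 : allR (guardB 17026 (blk fc sc rt.get INV isH)) 6 9280 = true := by decide +kernel
theorem b146 : allR (guardB 17026 (blk fc sc rt.get INV isH)) 6 9344 = true := by decide +kernel
theorem b147 : allR (guardB 17026 (blk fc sc rt.get INV isH)) 6 9408 = true := by decide +kernel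
theorem b148 : allR (guardB 17026 (blk fc sc rt.get INV isH)) 6 9472 = true := by decide +kernel
theorem b149 : allR (guardB 17026 (blk fc sc rt.get INV isH)) 6 9536 = true := by decide +kernel
theorem b150 : allR (guardB 17026 (blk fc sc rt.get INV isH)) 6 9600 = true := by decide +kernel
theorem b151 : allR (guardB 17026 (blk fc sc rt.get INV isH)) 6 9664 = true := by decide +kernel

end Cfsg.Agent.Lib.Helper11.Fi24a
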