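import Cfsg.Agent.Lib.Helper11.Fi24a.Top

set_option autoImplicit false
set_option maxRecDepth 100000

namespace Cfsg.Agent.Lib.Helper11.Fi24a

set_option maxHeartbeats 0
theorem b152 : allR (guardB 17026 (blk fc sc rt.get INV isH)) 6 9728 = true := by decide +kernel
theorem b153 : allR (guardB 17026 (blk fc sc rt.get INV isH)) 6 9792 = true := by decide +kernel
theorem b154 : allR (guardB 17026 (blk fc sc rt.get INV isH)) 6 9856 = true := by decide +kernel
theorem b155 : allR (guardB 17026 (blk fc sc rt.get INV isH)) 6 9920 = true := by decide +kernel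
theorem b156 : allR (guardB 17026 (blk fc sc rt.get INV isH)) 6 9984 = true := by decide +kernel
theorem b157 : allR (guardB 17026 (blk fc sc rt.get INV isH)) 6 10048 = true := by decide +kernel
theorem b158 : allR (guardB 17026 (blk fc sc rt.get INV isH)) 6 10112 = true := by decide +kernel
theorem b159 : allR (guardB 17026 (blk fc sc rt.get INV isH)) 6 10176 = true := by decide +kernel

end Cfsg.Agent.Lib.Helper11.Fi24a
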