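import Cfsg.Agent.Lib.Helper11.Fi24a.Top

set_option autoImplicit false
set_option maxRecDepth 100000

namespace Cfsg.Agent.Lib.Helper11.Fi24a

set_option maxHeartbeats 0
theorem b160 : allR (guardB 17026 (blk fc sc rt.get INV isH)) 6 10240 = true := by decide +kernel
theorem b161 : allR (guardB 17026 (blk fc sc rt.get INV isH)) 6 10304 = true := by decide +kernel
theorem b162 : allR (guardB 17026 (blk fc sc rt.get INV isH)) 6 10368 = true := by decide +kernel
theorem b163 : allR (guardB 17026 (blk fc sc rt.get INV isH)) 6 10432 = true := by decide +kernel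
theorem b164 : allR (guardB 17026 (blk fc sc rt.get INV isH)) 6 10496 = true := by decide +kernel
theorem b165 : allR (guardB 17026 (blk fc sc rt.get INV isH)) 6 10560 = true := by decide +kernel
theorem b166 : allR (guardB 17026 (blk fc sc rt.get INV isH)) 6 10624 = true := by decide +kernel
theorem b167 : allR (guardB 17026 (blk fc sc rt.get INV isH)) 6 10688 = true := by decide +kernel

end Cfsg.Agent.Lib.Helper11.Fi24a
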