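import Cfsg.Agent.Lib.Helper11.Fi24a.Top

set_option autoImplicit false
set_option maxRecDepth 100000

namespace Cfsg.Agent.Lib.Helper11.Fi24a

set_option maxHeartbeats 0
theorem b168 : allR (guardB 17026 (blk fc sc rt.get INV isH)) 6 10752 = true := by decide +kernel
theorem b169 : allR (guardB 17026 (blk fc sc rt.get INV isH)) 6 10816 = true := by decide +kernel
theorem b170 : allR (guardB 17026 (blk fc sc rt.get INV isH)) 6 10880 = true := by decide +kernel
theorem b171 : allR (guardB 17026 (blk fc sc rt.get INV isH)) 6 10944 = true := by decide +kernel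
theorem b172 : allR (guardB 17026 (blk fc sc rt.get INV isH)) 6 11008 = true := by decide +kernel
theorem b173 : allR (guardB 17026 (blk fc sc rt.get INV isH)) 6 11072 = true := by decide +kernel
theorem b174 : allR (guardB 17026 (blk fc sc rt.get INV isH)) 6 11136 = true := by decide +kernel
theorem b175 : allR (guardB 17026 (blk fc sc rt.get INV isH)) 6 11200 = true := by decide +kernel

end Cfsg.Agent.Lib.Helper11.Fi24a
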