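import Cfsg.Agent.Lib.Helper11.Fi24a.Top

set_option autoImplicit false
set_option maxRecDepth 100000

namespace Cfsg.Agent.Lib.Helper11.Fi24a

set_option maxHeartbeats 0
theorem b176 : allR (guardB 17026 (blk fc sc rt.get INV isH)) 6 11264 = true := by decide +kernel
theorem b177 : allR (guardB 17026 (blk fc sc rt.get INV isH)) 6 11328 = true := by decide +kernel
theorem b178 : allR (guardB 17026 (blk fc sc rt.get INV isH)) 6 11392 = true := by decide +kernel
theorem b179 : allR (guardB 17026 (blk fc sc rt.get INV isH)) 6 11456 = true := by decide +kernel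
theorem b180 : allR (guardB 17026 (blk fc sc rt.get INV isH)) 6 11520 = true := by decide +kernel
theorem b181 : allR (guardB 17026 (blk fc sc rt.get INV isH)) 6 11584 = true := by decide +kernel
theorem b182 : allR (guardB 17026 (blk fc sc rt.get INV isH)) 6 11648 = true := by decide +kernel
theorem b183 : allR (guardB 17026 (blk fc sc rt.get INV isH)) 6 11712 = true := by decide +kernel

end Cfsg.Agent.Lib.Helper11.Fi24a
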