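import Cfsg.Agent.Lib.Helper11.Fi24a.Top

set_option autoImplicit false
set_option maxRecDepth 100000

namespace Cfsg.Agent.Lib.Helper11.Fi24a

set_option maxHeartbeats 0
theorem b184 : allR (guardB 17026 (blk fc sc rt.get INV isH)) 6 11776 = true := by decide +kernel
theorem b185 : allR (guardB 17026 (blk fc sc rt.get INV isH)) 6 11840 = true := by decide +kernel
theorem b186 : allR (guardB 17026 (blk fc sc rt.get INV isH)) 6 11904 = true := by decide +kernel
theorem b187 : allR (guardB 17026 (blk fc sc rt.get INV isH)) 6 11968 = true := by decide +kernel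
theorem b188 : allR (guardB 17026 (blk fc sc rt.get INV isH)) 6 12032 = true := by decide +kernel
theorem b189 : allR (guardB 17026 (blk fc sc rt.get INV isH)) 6 12096 = true := by decide +kernel
theorem b190 : allR (guardB 17026 (blk fc sc rt.get INV isH)) 6 12160 = true := by decide +kernel
theorem b191 : allR (guardB 17026 (blk fc sc rt.get INV isH)) 6 12224 = true := by decide +kernel

end Cfsg.Agent.Lib.Helper11.Fi24a
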