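import Cfsg.Agent.Lib.Helper11.Fi24a.Top

set_option autoImplicit false
set_option maxRecDepth 100000

namespace Cfsg.Agent.Lib.Helper11.Fi24a

set_option maxHeartbeats 0
theorem b192 : allR (guardB 17026 (blk fc sc rt.get INV isH)) 6 12288 = true := by decide +kernel
theorem b193 : allR (guardB 17026 (blk fc sc rt.get INV isH)) 6 12352 = true := by decide +kernel
theorem b194 : allR (guardB 17026 (blk fc sc rt.get INV isH)) 6 12416 = true := by decide +kernel
theorem b195 : allR (guardB 17026 (blk fc sc rt.get INV isH)) 6 12480 = true := by decide +kernel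
theorem b196 : allR (guardB 17026 (blk fc sc rt.get INV isH)) 6 12544 = true := by decide +kernel
theorem b197 : allR (guardB 17026 (blk fc sc rt.get INV isH)) 6 12608 = true := by decide +kernel
theorem b198 : allR (guardB 17026 (blk fc sc rt.get INV isH)) 6 12672 = true := by decide +kernel
theorem b199 : allR (guardB 17026 (blk fc sc rt.get INV isH)) 6 12736 = true := by decide +kernel

end Cfsg.Agent.Lib.Helper11.Fi24a
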