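import Cfsg.Agent.Lib.Helper11.Fi24a.Top

set_option autoImplicit false
set_option maxRecDepth 100000

namespace Cfsg.Agent.Lib.Helper11.Fi24a

set_option maxHeartbeats 0
theorem b200 : allR (guardB 17026 (blk fc sc rt.get INV isH)) 6 12800 = true := by decide +kernel
theorem b201 : allR (guardB 17026 (blk fc sc rt.get INV isH)) 6 12864 = true := by decide +kernel
theorem b202 : allR (guardB 17026 (blk fc sc rt.get INV isH)) 6 12928 = true := by decide +kernel
theorem b203 : allR (guardB 17026 (blk fc sc rt.get INV isH)) 6 12992 = true := by decide +kernel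
theorem b204 : allR (guardB 17026 (blk fc sc rt.get INV isH)) 6 13056 = true := by decide +kernel
theorem b205 : allR (guardB 17026 (blk fc sc rt.get INV isH)) 6 13120 = true := by decide +kernel
theorem b206 : allR (guardB 17026 (blk fc sc rt.get INV isH)) 6 13184 = true := by decide +kernel
theorem b207 : allR (guardB 17026 (blk fc sc rt.get INV isH)) 6 13248 = true := by decide +kernel

end Cfsg.Agent.Lib.Helper11.Fi24a
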