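import Cfsg.Agent.Lib.Helper11.Fi24a.Top

set_option autoImplicit false
set_option maxRecDepth 100000

namespace Cfsg.Agent.Lib.Helper11.Fi24a

set_option maxHeartbeats 0
theorem b208 : allR (guardB 17026 (blk fc sc rt.get INV isH)) 6 13312 = true := by decide +kernel
theorem b209 : allR (guardB 17026 (blk fc sc rt.get INV isH)) 6 13376 = true := by decide +kernel
theorem b210 : allR (guardB 17026 (blk fc sc rt.get INV isH)) 6 13440 = true := by decide +kernel
theorem b211 : allR (guardB 17026 (blk fc sc rt.get INV isH)) 6 13504 = true := by decide +kernel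
theorem b212 : allR (guardB 17026 (blk fc sc rt.get INV isH)) 6 13568 = true := by decide +kernel
theorem b213 : allR (guardB 17026 (blk fc sc rt.get INV isH)) 6 13632 = true := by decide +kernel
theorem b214 : allR (guardB 17026 (blk fc sc rt.get INV isH)) 6 13696 = true := by decide +kernel
theorem b215 : allR (guardB 17026 (blk fc sc rt.get INV isH)) 6 13760 = true := by decide +kernel

end Cfsg.Agent.Lib.Helper11.Fi24a
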