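import Cfsg.Agent.Lib.Helper11.Fi24a.Top

set_option autoImplicit false
set_option maxRecDepth 100000

namespace Cfsg.Agent.Lib.Helper11.Fi24a

set_option maxHeartbeats 0
theorem b216 : allR (guardB 17026 (blk fc sc rt.get INV isH)) 6 13824 = true := by decide +kernel
theorem b217 : allR (guardB 17026 (blk fc sc rt.get INV isH)) 6 13888 = true := by decide +kernel
theorem b218 : allR (guardB 17026 (blk fc sc rt.get INV isH)) 6 13952 = true := by decide +kernel
theorem b219 : allR (guardB 17026 (blk fc sc rt.get INV isH)) 6 14016 = true := by decide +kernel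
theorem b220 : allR (guardB 17026 (blk fc sc rt.get INV isH)) 6 14080 = true := by decide +kernel
theorem b221 : allR (guardB 17026 (blk fc sc rt.get INV isH)) 6 14144 = true := by decide +kernel
theorem b222 : allR (guardB 17026 (blk fc sc rt.get INV isH)) 6 14208 = true := by decide +kernel
theorem b223 : allR (guardB 17026 (blk fc sc rt.get INV isH)) 6 14272 = true := by decide +kernel

end Cfsg.Agent.Lib.Helper11.Fi24a
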