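import Cfsg.Agent.Lib.Helper11.Fi24a.Top

set_option autoImplicit false
set_option maxRecDepth 100000

namespace Cfsg.Agent.Lib.Helper11.Fi24a

set_option maxHeartbeats 0
theorem b224 : allR (guardB 17026 (blk fc sc rt.get INV isH)) 6 14336 = true := by decide +kernel
theorem b225 : allR (guardB 17026 (blk fc sc rt.get INV isH)) 6 14400 = true := by decide +kernel
theorem b226 : allR (guardB 17026 (blk fc sc rt.get INV isH)) 6 14464 = true := by decide +kernel
theorem b227 : allR (guardB 17026 (blk fc sc rt.get INV isH)) 6 14528 = true := by decide +kernel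
theorem b228 : allR (guardB 17026 (blk fc sc rt.get INV isH)) 6 14592 = true := by decide +kernel
theorem b229 : allR (guardB 17026 (blk fc sc rt.get INV isH)) 6 14656 = true := by decide +kernel
theorem b230 : allR (guardB 17026 (blk fc sc rt.get INV isH)) 6 14720 = true := by decide +kernel
theorem b231 : allR (guardB 17026 (blk fc sc rt.get INV isH)) 6 14784 = true := by decide +kernel

end Cfsg.Agent.Lib.Helper11.Fi24a
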