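import Cfsg.Agent.Lib.Helper11.Fi24a.Top

set_option autoImplicit false
set_option maxRecDepth 100000

namespace Cfsg.Agent.Lib.Helper11.Fi24a

set_option maxHeartbeats 0
theorem b232 : allR (guardB 17026 (blk fc sc rt.get INV isH)) 6 14848 = true := by decide +kernel
theorem b233 : allR (guardB 17026 (blk fc sc rt.get INV isH)) 6 14912 = true := by decide +kernel
theorem b234 : allR (guardB 17026 (blk fc sc rt.get INV isH)) 6 14976 = true := by decide +kernel
theorem b235 : allR (guardB 17026 (blk fc sc rt.get INV isH)) 6 15040 = true := by decide +kernel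
theorem b236 : allR (guardB 17026 (blk fc sc rt.get INV isH)) 6 15104 = true := by decide +kernel
theorem b237 : allR (guardB 17026 (blk fc sc rt.get INV isH)) 6 15168 = true := by decide +kernel
theorem b238 : allR (guardB 17026 (blk fc sc rt.get INV isH)) 6 15232 = true := by decide +kernel
theorem b239 : allR (guardB 17026 (blk fc sc rt.get INV isH)) 6 15296 = true := by decide +kernel

end Cfsg.Agent.Lib.Helper11.Fi24a
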