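import Cfsg.Agent.Lib.Helper11.Fi24a.Top

set_option autoImplicit false
set_option maxRecDepth 100000

namespace Cfsg.Agent.Lib.Helper11.Fi24a

set_option maxHeartbeats 0
theorem b240 : allR (guardB 17026 (blk fc sc rt.get INV isH)) 6 15360 = true := by decide +kernel
theorem b241 : allR (guardB 17026 (blk fc sc rt.get INV isH)) 6 15424 = true := by decide +kernel
theorem b242 : allR (guardB 17026 (blk fc sc rt.get INV isH)) 6 15488 = true := by decide +kernel
theorem b243 : allR (guardB 17026 (blk fc sc rt.get INV isH)) 6 15552 = true := by decide +kernel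
theorem b244 : allR (guardB 17026 (blk fc sc rt.get INV isH)) 6 15616 = true := by decide +kernel
theorem b245 : allR (guardB 17026 (blk fc sc rt.get INV isH)) 6 15680 = true := by decide +kernel
theorem b246 : allR (guardB 17026 (blk fc sc rt.get INV isH)) 6 15744 = true := by decide +kernel
theorem b247 : allR (guardB 17026 (blk fc sc rt.get INV isH)) 6 15808 = true := by decide +kernel

end Cfsg.Agent.Lib.Helper11.Fi24a
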