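import Cfsg.Agent.Lib.Helper11.Fi24a.Top

set_option autoImplicit false
set_option maxRecDepth 100000

namespace Cfsg.Agent.Lib.Helper11.Fi24a

set_option maxHeartbeats 0
theorem b248 : allR (guardB 17026 (blk fc sc rt.get INV isH)) 6 15872 = true := by decide +kernel
theorem b249 : allR (guardB 17026 (blk fc sc rt.get INV isH)) 6 15936 = true := by decide +kernel
theorem b250 : allR (guardB 17026 (blk fc sc rt.get INV isH)) 6 16000 = true := by decide +kernel
theorem b251 : allR (guardB 17026 (blk fc sc rt.get INV isH)) 6 16064 = true := by decide +kernel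
theorem b252 : allR (guardB 17026 (blk fc sc rt.get INV isH)) 6 16128 = true := by decide +kernel
theorem b253 : allR (guardB 17026 (blk fc sc rt.get INV isH)) 6 16192 = true := by decide +kernel
theorem b254 : allR (guardB 17026 (blk fc sc rt.get INV isH)) 6 16256 = true := by decide +kernel
theorem b255 : allR (guardB 17026 (blk fc sc rt.get INV isH)) 6 16320 = true := by decide +kernel

end Cfsg.Agent.Lib.Helper11.Fi24a
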