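import Cfsg.Agent.Lib.Helper11.Fi24a.Top

set_option autoImplicit false
set_option maxRecDepth 100000

namespace Cfsg.Agent.Lib.Helper11.Fi24a

set_option maxHeartbeats 0
theorem b256 : allR (guardB 17026 (blk fc sc rt.get INV isH)) 6 16384 = true := by decide +kernel
theorem b257 : allR (guardB 17026 (blk fc sc rt.get INV isH)) 6 16448 = true := by decide +kernel
theorem b258 : allR (guardB 17026 (blk fc sc rt.get INV isH)) 6 16512 = true := by decide +kernel
theorem b259 : allR (guardB 17026 (blk fc sc rt.get INV isH)) 6 16576 = true := by decide +kernel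
theorem b260 : allR (guardB 17026 (blk fc sc rt.get INV isH)) 6 16640 = true := by decide +kernel
theorem b261 : allR (guardB 17026 (blk fc sc rt.get INV isH)) 6 16704 = true := by decide +kernel
theorem b262 : allR (guardB 17026 (blk fc sc rt.get INV isH)) 6 16768 = true := by decide +kernel
theorem b263 : allR (guardB 17026 (blk fc sc rt.get INV isH)) 6 16832 = true := by decide +kernel

end Cfsg.Agent.Lib.Helper11.Fi24a
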