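import Cfsg.Agent.Lib.Helper11.Fi24a.Top

set_option autoImplicit false
set_option maxRecDepth 100000

namespace Cfsg.Agent.Lib.Helper11.Fi24a

set_option maxHeartbeats 0
theorem b264 : allR (guardB 17026 (blk fc sc rt.get INV isH)) 6 16896 = true := by decide +kernel
theorem b265 : allR (guardB 17026 (blk fc sc rt.get INV isH)) 6 16960 = true := by decide +kernel
theorem b266 : allR (guardB 17026 (blk fc sc rt.get INV isH)) 6 17024 = true := by decide +kernel
theorem b267 : allR (guardB 17026 (blk fc sc rt.get INV isH)) 6 17088 = true := by decide +kernel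
theorem b268 : allR (guardB 17026 (blk fc sc rt.get INV isH)) 6 17152 = true := by decide +kernel
theorem b269 : allR (guardB 17026 (blk fc sc rt.get INV isH)) 6 17216 = true := by decide +kernel
theorem b270 : allR (guardB 17026 (blk fc sc rt.get INV isH)) 6 17280 = true := by decide +kernel
theorem b271 : allR (guardB 17026 (blk fc sc rt.get INV isH)) 6 17344 = true := by decide +kernel

end Cfsg.Agent.Lib.Helper11.Fi24a
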