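import Cfsg.Agent.Lib.Helper11.Fi24a.Top

set_option autoImplicit false
set_option maxRecDepth 100000

namespace Cfsg.Agent.Lib.Helper11.Fi24a

set_option maxHeartbeats 0
theorem b272 : allR (guardB 17026 (blk fc sc rt.get INV isH)) 6 17408 = true := by decide +kernel
theorem b273 : allR (guardB 17026 (blk fc sc rt.get INV isH)) 6 17472 = true := by decide +kernel
theorem b274 : allR (guardB 17026 (blk fc sc rt.get INV isH)) 6 17536 = true := by decide +kernel
theorem b275 : allR (guardB 17026 (blk fc sc rt.get INV isH)) 6 17600 = true := by decide +kernel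
theorem b276 : allR (guardB 17026 (blk fc sc rt.get INV isH)) 6 17664 = true := by decide +kernel
theorem b277 : allR (guardB 17026 (blk fc sc rt.get INV isH)) 6 17728 = true := by decide +kernel
theorem b278 : allR (guardB 17026 (blk fc sc rt.get INV isH)) 6 17792 = true := by decide +kernel
theorem b279 : allR (guardB 17026 (blk fc sc rt.get INV isH)) 6 17856 = true := by decide +kernel

end Cfsg.Agent.Lib.Helper11.Fi24a
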