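import Cfsg.Agent.Lib.Helper11.Fi24a.Top

set_option autoImplicit false
set_option maxRecDepth 100000

namespace Cfsg.Agent.Lib.Helper11.Fi24a

set_option maxHeartbeats 0
theorem b280 : allR (guardB 17026 (blk fc sc rt.get INV isH)) 6 17920 = true := by decide +kernel
theorem b281 : allR (guardB 17026 (blk fc sc rt.get INV isH)) 6 17984 = true := by decide +kernel
theorem b282 : allR (guardB 17026 (blk fc sc rt.get INV isH)) 6 18048 = true := by decide +kernel
theorem b283 : allR (guardB 17026 (blk fc sc rt.get INV isH)) 6 18112 = true := by decide +kernel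
theorem b284 : allR (guardB 17026 (blk fc sc rt.get INV isH)) 6 18176 = true := by decide +kernel
theorem b285 : allR (guardB 17026 (blk fc sc rt.get INV isH)) 6 18240 = true := by decide +kernel
theorem b286 : allR (guardB 17026 (blk fc sc rt.get INV isH)) 6 18304 = true := by decide +kernel
theorem b287 : allR (guardB 17026 (blk fc sc rt.get INV isH)) 6 18368 = true := by decide +kernel

end Cfsg.Agent.Lib.Helper11.Fi24a
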