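import Cfsg.Agent.Lib.Helper11.Fi24a.Top

set_option autoImplicit false
set_option maxRecDepth 100000

namespace Cfsg.Agent.Lib.Helper11.Fi24a

set_option maxHeartbeats 0
theorem b288 : allR (guardB 17026 (blk fc sc rt.get INV isH)) 6 18432 = true := by decide +kernel
theorem b289 : allR (guardB 17026 (blk fc sc rt.get INV isH)) 6 18496 = true := by decide +kernel
theorem b290 : allR (guardB 17026 (blk fc sc rt.get INV isH)) 6 18560 = true := by decide +kernel
theorem b291 : allR (guardB 17026 (blk fc sc rt.get INV isH)) 6 18624 = true := by decide +kernel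
theorem b292 : allR (guardB 17026 (blk fc sc rt.get INV isH)) 6 18688 = true := by decide +kernel
theorem b293 : allR (guardB 17026 (blk fc sc rt.get INV isH)) 6 18752 = true := by decide +kernel
theorem b294 : allR (guardB 17026 (blk fc sc rt.get INV isH)) 6 18816 = true := by decide +kernel
theorem b295 : allR (guardB 17026 (blk fc sc rt.get INV isH)) 6 18880 = true := by decide +kernel

end Cfsg.Agent.Lib.Helper11.Fi24a
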