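import Cfsg.Agent.Lib.Helper11.Fi24a.Top

set_option autoImplicit false
set_option maxRecDepth 100000

namespace Cfsg.Agent.Lib.Helper11.Fi24a

set_option maxHeartbeats 0
theorem b296 : allR (guardB 17026 (blk fc sc rt.get INV isH)) 6 18944 = true := by decide +kernel
theorem b297 : allR (guardB 17026 (blk fc sc rt.get INV isH)) 6 19008 = true := by decide +kernel
theorem b298 : allR (guardB 17026 (blk fc sc rt.get INV isH)) 6 19072 = true := by decide +kernel
theorem b299 : allR (guardB 17026 (blk fc sc rt.get INV isH)) 6 19136 = true := by decide +kernel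
theorem b300 : allR (guardB 17026 (blk fc sc rt.get INV isH)) 6 19200 = true := by decide +kernel
theorem b301 : allR (guardB 17026 (blk fc sc rt.get INV isH)) 6 19264 = true := by decide +kernel
theorem b302 : allR (guardB 17026 (blk fc sc rt.get INV isH)) 6 19328 = true := by decide +kernel
theorem b303 : allR (guardB 17026 (blk fc sc rt.get INV isH)) 6 19392 = true := by decide +kernel

end Cfsg.Agent.Lib.Helper11.Fi24a
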