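import Cfsg.Agent.Lib.Helper11.Fi24a.Top

set_option autoImplicit false
set_option maxRecDepth 100000

namespace Cfsg.Agent.Lib.Helper11.Fi24a

set_option maxHeartbeats 0
theorem b304 : allR (guardB 17026 (blk fc sc rt.get INV isH)) 6 19456 = true := by decide +kernel
theorem b305 : allR (guardB 17026 (blk fc sc rt.get INV isH)) 6 19520 = true := by decide +kernel
theorem b306 : allR (guardB 17026 (blk fc sc rt.get INV isH)) 6 19584 = true := by decide +kernel
theorem b307 : allR (guardB 17026 (blk fc sc rt.get INV isH)) 6 19648 = true := by decide +kernel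
theorem b308 : allR (guardB 17026 (blk fc sc rt.get INV isH)) 6 19712 = true := by decide +kernel
theorem b309 : allR (guardB 17026 (blk fc sc rt.get INV isH)) 6 19776 = true := by decide +kernel
theorem b310 : allR (guardB 17026 (blk fc sc rt.get INV isH)) 6 19840 = true := by decide +kernel
theorem b311 : allR (guardB 17026 (blk fc sc rt.get INV isH)) 6 19904 = true := by decide +kernel

end Cfsg.Agent.Lib.Helper11.Fi24a
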