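import Cfsg.Agent.Lib.Helper11.Fi24a.Top

set_option autoImplicit false
set_option maxRecDepth 100000

namespace Cfsg.Agent.Lib.Helper11.Fi24a

set_option maxHeartbeats 0
theorem b312 : allR (guardB 17026 (blk fc sc rt.get INV isH)) 6 19968 = true := by decide +kernel
theorem b313 : allR (guardB 17026 (blk fc sc rt.get INV isH)) 6 20032 = true := by decide +kernel
theorem b314 : allR (guardB 17026 (blk fc sc rt.get INV isH)) 6 20096 = true := by decide +kernel
theorem b315 : allR (guardB 17026 (blk fc sc rt.get INV isH)) 6 20160 = true := by decide +kernel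
theorem b316 : allR (guardB 17026 (blk fc sc rt.get INV isH)) 6 20224 = true := by decide +kernel
theorem b317 : allR (guardB 17026 (blk fc sc rt.get INV isH)) 6 20288 = true := by decide +kernel
theorem b318 : allR (guardB 17026 (blk fc sc rt.get INV isH)) 6 20352 = true := by decide +kernel
theorem b319 : allR (guardB 17026 (blk fc sc rt.get INV isH)) 6 20416 = true := by decide +kernel

end Cfsg.Agent.Lib.Helper11.Fi24a
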