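import Cfsg.Agent.Lib.Helper11.Fi24a.Top

set_option autoImplicit false
set_option maxRecDepth 100000

namespace Cfsg.Agent.Lib.Helper11.Fi24a

set_option maxHeartbeats 0
theorem b32 : allR (guardB 17026 (blk fc sc rt.get INV isH)) 6 2048 = true := by decide +kernel
theorem b33 : allR (guardB 17026 (blk fc sc rt.get INV isH)) 6 2112 = true := by decide +kernel
theorem b34 : allR (guardB 17026 (blk fc sc rt.get INV isH)) 6 2176 = true := by decide +kernel
theorem b35 : allR (guardB 17026 (blk fc sc rt.get INV isH)) 6 2240 = true := by decide +kernel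
theorem b36 : allR (guardB 17026 (blk fc sc rt.get INV isH)) 6 2304 = true := by decide +kernel
theorem b37 : allR (guardB 17026 (blk fc sc rt.get INV isH)) 6 2368 = true := by decide +kernel
theorem b38 : allR (guardB 17026 (blk fc sc rt.get INV isH)) 6 2432 = true := by decide +kernel
theorem b39 : allR (guardB 17026 (blk fc sc rt.get INV isH)) 6 2496 = true := by decide +kernel

end Cfsg.Agent.Lib.Helper11.Fi24a
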