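import Cfsg.Agent.Lib.Helper11.Fi24a.Top

set_option autoImplicit false
set_option maxRecDepth 100000

namespace Cfsg.Agent.Lib.Helper11.Fi24a

set_option maxHeartbeats 0
theorem b320 : allR (guardB 17026 (blk fc sc rt.get INV isH)) 6 20480 = true := by decide +kernel
theorem b321 : allR (guardB 17026 (blk fc sc rt.get INV isH)) 6 20544 = true := by decide +kernel
theorem b322 : allR (guardB 17026 (blk fc sc rt.get INV isH)) 6 20608 = true := by decide +kernel
theorem b323 : allR (guardB 17026 (blk fc sc rt.get INV isH)) 6 20672 = true := by decide +kernel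
theorem b324 : allR (guardB 17026 (blk fc sc rt.get INV isH)) 6 20736 = true := by decide +kernel
theorem b325 : allR (guardB 17026 (blk fc sc rt.get INV isH)) 6 20800 = true := by decide +kernel
theorem b326 : allR (guardB 17026 (blk fc sc rt.get INV isH)) 6 20864 = true := by decide +kernel
theorem b327 : allR (guardB 17026 (blk fc sc rt.get INV isH)) 6 20928 = true := by decide +kernel

end Cfsg.Agent.Lib.Helper11.Fi24a
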