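import Cfsg.Agent.Lib.Helper11.Fi24a.Top

set_option autoImplicit false
set_option maxRecDepth 100000

namespace Cfsg.Agent.Lib.Helper11.Fi24a

set_option maxHeartbeats 0
theorem b328 : allR (guardB 17026 (blk fc sc rt.get INV isH)) 6 20992 = true := by decide +kernel
theorem b329 : allR (guardB 17026 (blk fc sc rt.get INV isH)) 6 21056 = true := by decide +kernel
theorem b330 : allR (guardB 17026 (blk fc sc rt.get INV isH)) 6 21120 = true := by decide +kernel
theorem b331 : allR (guardB 17026 (blk fc sc rt.get INV isH)) 6 21184 = true := by decide +kernel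
theorem b332 : allR (guardB 17026 (blk fc sc rt.get INV isH)) 6 21248 = true := by decide +kernel
theorem b333 : allR (guardB 17026 (blk fc sc rt.get INV isH)) 6 21312 = true := by decide +kernel
theorem b334 : allR (guardB 17026 (blk fc sc rt.get INV isH)) 6 21376 = true := by decide +kernel
theorem b335 : allR (guardB 17026 (blk fc sc rt.get INV isH)) 6 21440 = true := by decide +kernel

end Cfsg.Agent.Lib.Helper11.Fi24a
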