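import Cfsg.Agent.Lib.Helper11.Fi24a.Top

set_option autoImplicit false
set_option maxRecDepth 100000

namespace Cfsg.Agent.Lib.Helper11.Fi24a

set_option maxHeartbeats 0
theorem b336 : allR (guardB 17026 (blk fc sc rt.get INV isH)) 6 21504 = true := by decide +kernel
theorem b337 : allR (guardB 17026 (blk fc sc rt.get INV isH)) 6 21568 = true := by decide +kernel
theorem b338 : allR (guardB 17026 (blk fc sc rt.get INV isH)) 6 21632 = true := by decide +kernel
theorem b339 : allR (guardB 17026 (blk fc sc rt.get INV isH)) 6 21696 = true := by decide +kernel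
theorem b340 : allR (guardB 17026 (blk fc sc rt.get INV isH)) 6 21760 = true := by decide +kernel
theorem b341 : allR (guardB 17026 (blk fc sc rt.get INV isH)) 6 21824 = true := by decide +kernel
theorem b342 : allR (guardB 17026 (blk fc sc rt.get INV isH)) 6 21888 = true := by decide +kernel
theorem b343 : allR (guardB 17026 (blk fc sc rt.get INV isH)) 6 21952 = true := by decide +kernel

end Cfsg.Agent.Lib.Helper11.Fi24a
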