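import Cfsg.Agent.Lib.Helper11.Fi24a.Top

set_option autoImplicit false
set_option maxRecDepth 100000

namespace Cfsg.Agent.Lib.Helper11.Fi24a

set_option maxHeartbeats 0
theorem b344 : allR (guardB 17026 (blk fc sc rt.get INV isH)) 6 22016 = true := by decide +kernel
theorem b345 : allR (guardB 17026 (blk fc sc rt.get INV isH)) 6 22080 = true := by decide +kernel
theorem b346 : allR (guardB 17026 (blk fc sc rt.get INV isH)) 6 22144 = true := by decide +kernel
theorem b347 : allR (guardB 17026 (blk fc sc rt.get INV isH)) 6 22208 = true := by decide +kernel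
theorem b348 : allR (guardB 17026 (blk fc sc rt.get INV isH)) 6 22272 = true := by decide +kernel
theorem b349 : allR (guardB 17026 (blk fc sc rt.get INV isH)) 6 22336 = true := by decide +kernel
theorem b350 : allR (guardB 17026 (blk fc sc rt.get INV isH)) 6 22400 = true := by decide +kernel
theorem b351 : allR (guardB 17026 (blk fc sc rt.get INV isH)) 6 22464 = true := by decide +kernel

end Cfsg.Agent.Lib.Helper11.Fi24a
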