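import Cfsg.Agent.Lib.Helper11.Fi24a.Top

set_option autoImplicit false
set_option maxRecDepth 100000

namespace Cfsg.Agent.Lib.Helper11.Fi24a

set_option maxHeartbeats 0
theorem b352 : allR (guardB 17026 (blk fc sc rt.get INV isH)) 6 22528 = true := by decide +kernel
theorem b353 : allR (guardB 17026 (blk fc sc rt.get INV isH)) 6 22592 = true := by decide +kernel
theorem b354 : allR (guardB 17026 (blk fc sc rt.get INV isH)) 6 22656 = true := by decide +kernel
theorem b355 : allR (guardB 17026 (blk fc sc rt.get INV isH)) 6 22720 = true := by decide +kernel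
theorem b356 : allR (guardB 17026 (blk fc sc rt.get INV isH)) 6 22784 = true := by decide +kernel
theorem b357 : allR (guardB 17026 (blk fc sc rt.get INV isH)) 6 22848 = true := by decide +kernel
theorem b358 : allR (guardB 17026 (blk fc sc rt.get INV isH)) 6 22912 = true := by decide +kernel
theorem b359 : allR (guardB 17026 (blk fc sc rt.get INV isH)) 6 22976 = true := by decide +kernel

end Cfsg.Agent.Lib.Helper11.Fi24a
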