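import Cfsg.Agent.Lib.Helper11.Fi24a.Top

set_option autoImplicit false
set_option maxRecDepth 100000

namespace Cfsg.Agent.Lib.Helper11.Fi24a

set_option maxHeartbeats 0
theorem b360 : allR (guardB 17026 (blk fc sc rt.get INV isH)) 6 23040 = true := by decide +kernel
theorem b361 : allR (guardB 17026 (blk fc sc rt.get INV isH)) 6 23104 = true := by decide +kernel
theorem b362 : allR (guardB 17026 (blk fc sc rt.get INV isH)) 6 23168 = true := by decide +kernel
theorem b363 : allR (guardB 17026 (blk fc sc rt.get INV isH)) 6 23232 = true := by decide +kernel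
theorem b364 : allR (guardB 17026 (blk fc sc rt.get INV isH)) 6 23296 = true := by decide +kernel
theorem b365 : allR (guardB 17026 (blk fc sc rt.get INV isH)) 6 23360 = true := by decide +kernel
theorem b366 : allR (guardB 17026 (blk fc sc rt.get INV isH)) 6 23424 = true := by decide +kernel
theorem b367 : allR (guardB 17026 (blk fc sc rt.get INV isH)) 6 23488 = true := by decide +kernel

end Cfsg.Agent.Lib.Helper11.Fi24a
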