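import Cfsg.Agent.Lib.Helper11.Fi24a.Top

set_option autoImplicit false
set_option maxRecDepth 100000

namespace Cfsg.Agent.Lib.Helper11.Fi24a

set_option maxHeartbeats 0
theorem b368 : allR (guardB 17026 (blk fc sc rt.get INV isH)) 6 23552 = true := by decide +kernel
theorem b369 : allR (guardB 17026 (blk fc sc rt.get INV isH)) 6 23616 = true := by decide +kernel
theorem b370 : allR (guardB 17026 (blk fc sc rt.get INV isH)) 6 23680 = true := by decide +kernel
theorem b371 : allR (guardB 17026 (blk fc sc rt.get INV isH)) 6 23744 = true := by decide +kernel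
theorem b372 : allR (guardB 17026 (blk fc sc rt.get INV isH)) 6 23808 = true := by decide +kernel
theorem b373 : allR (guardB 17026 (blk fc sc rt.get INV isH)) 6 23872 = true := by decide +kernel
theorem b374 : allR (guardB 17026 (blk fc sc rt.get INV isH)) 6 23936 = true := by decide +kernel
theorem b375 : allR (guardB 17026 (blk fc sc rt.get INV isH)) 6 24000 = true := by decide +kernel

end Cfsg.Agent.Lib.Helper11.Fi24a
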