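import Cfsg.Agent.Lib.Helper11.Fi24a.Top

set_option autoImplicit false
set_option maxRecDepth 100000

namespace Cfsg.Agent.Lib.Helper11.Fi24a

set_option maxHeartbeats 0
theorem b376 : allR (guardB 17026 (blk fc sc rt.get INV isH)) 6 24064 = true := by decide +kernel
theorem b377 : allR (guardB 17026 (blk fc sc rt.get INV isH)) 6 24128 = true := by decide +kernel
theorem b378 : allR (guardB 17026 (blk fc sc rt.get INV isH)) 6 24192 = true := by decide +kernel
theorem b379 : allR (guardB 17026 (blk fc sc rt.get INV isH)) 6 24256 = true := by decide +kernel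
theorem b380 : allR (guardB 17026 (blk fc sc rt.get INV isH)) 6 24320 = true := by decide +kernel
theorem b381 : allR (guardB 17026 (blk fc sc rt.get INV isH)) 6 24384 = true := by decide +kernel
theorem b382 : allR (guardB 17026 (blk fc sc rt.get INV isH)) 6 24448 = true := by decide +kernel
theorem b383 : allR (guardB 17026 (blk fc sc rt.get INV isH)) 6 24512 = true := by decide +kernel

end Cfsg.Agent.Lib.Helper11.Fi24a
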