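import Cfsg.Agent.Lib.Helper11.Fi24a.Top

set_option autoImplicit false
set_option maxRecDepth 100000

namespace Cfsg.Agent.Lib.Helper11.Fi24a

set_option maxHeartbeats 0
theorem b384 : allR (guardB 17026 (blk fc sc rt.get INV isH)) 6 24576 = true := by decide +kernel
theorem b385 : allR (guardB 17026 (blk fc sc rt.get INV isH)) 6 24640 = true := by decide +kernel
theorem b386 : allR (guardB 17026 (blk fc sc rt.get INV isH)) 6 24704 = true := by decide +kernel
theorem b387 : allR (guardB 17026 (blk fc sc rt.get INV isH)) 6 24768 = true := by decide +kernel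
theorem b388 : allR (guardB 17026 (blk fc sc rt.get INV isH)) 6 24832 = true := by decide +kernel
theorem b389 : allR (guardB 17026 (blk fc sc rt.get INV isH)) 6 24896 = true := by decide +kernel
theorem b390 : allR (guardB 17026 (blk fc sc rt.get INV isH)) 6 24960 = true := by decide +kernel
theorem b391 : allR (guardB 17026 (blk fc sc rt.get INV isH)) 6 25024 = true := by decide +kernel

end Cfsg.Agent.Lib.Helper11.Fi24a
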