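import Cfsg.Agent.Lib.Helper11.Fi24a.Top

set_option autoImplicit false
set_option maxRecDepth 100000

namespace Cfsg.Agent.Lib.Helper11.Fi24a

set_option maxHeartbeats 0
theorem b392 : allR (guardB 17026 (blk fc sc rt.get INV isH)) 6 25088 = true := by decide +kernel
theorem b393 : allR (guardB 17026 (blk fc sc rt.get INV isH)) 6 25152 = true := by decide +kernel
theorem b394 : allR (guardB 17026 (blk fc sc rt.get INV isH)) 6 25216 = true := by decide +kernel
theorem b395 : allR (guardB 17026 (blk fc sc rt.get INV isH)) 6 25280 = true := by decide +kernel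
theorem b396 : allR (guardB 17026 (blk fc sc rt.get INV isH)) 6 25344 = true := by decide +kernel
theorem b397 : allR (guardB 17026 (blk fc sc rt.get INV isH)) 6 25408 = true := by decide +kernel
theorem b398 : allR (guardB 17026 (blk fc sc rt.get INV isH)) 6 25472 = true := by decide +kernel
theorem b399 : allR (guardB 17026 (blk fc sc rt.get INV isH)) 6 25536 = true := by decide +kernel

end Cfsg.Agent.Lib.Helper11.Fi24a
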