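import Cfsg.Agent.Lib.Helper11.Fi24a.Top

set_option autoImplicit false
set_option maxRecDepth 100000

namespace Cfsg.Agent.Lib.Helper11.Fi24a

set_option maxHeartbeats 0
theorem b400 : allR (guardB 17026 (blk fc sc rt.get INV isH)) 6 25600 = true := by decide +kernel
theorem b401 : allR (guardB 17026 (blk fc sc rt.get INV isH)) 6 25664 = true := by decide +kernel
theorem b402 : allR (guardB 17026 (blk fc sc rt.get INV isH)) 6 25728 = true := by decide +kernel
theorem b403 : allR (guardB 17026 (blk fc sc rt.get INV isH)) 6 25792 = true := by decide +kernel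
theorem b404 : allR (guardB 17026 (blk fc sc rt.get INV isH)) 6 25856 = true := by decide +kernel
theorem b405 : allR (guardB 17026 (blk fc sc rt.get INV isH)) 6 25920 = true := by decide +kernel
theorem b406 : allR (guardB 17026 (blk fc sc rt.get INV isH)) 6 25984 = true := by decide +kernel
theorem b407 : allR (guardB 17026 (blk fc sc rt.get INV isH)) 6 26048 = true := by decide +kernel

end Cfsg.Agent.Lib.Helper11.Fi24a
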