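import Cfsg.Agent.Lib.Helper11.Fi24a.Top

set_option autoImplicit false
set_option maxRecDepth 100000

namespace Cfsg.Agent.Lib.Helper11.Fi24a

set_option maxHeartbeats 0
theorem b408 : allR (guardB 17026 (blk fc sc rt.get INV isH)) 6 26112 = true := by decide +kernel
theorem b409 : allR (guardB 17026 (blk fc sc rt.get INV isH)) 6 26176 = true := by decide +kernel
theorem b410 : allR (guardB 17026 (blk fc sc rt.get INV isH)) 6 26240 = true := by decide +kernel
theorem b411 : allR (guardB 17026 (blk fc sc rt.get INV isH)) 6 26304 = true := by decide +kernel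
theorem b412 : allR (guardB 17026 (blk fc sc rt.get INV isH)) 6 26368 = true := by decide +kernel
theorem b413 : allR (guardB 17026 (blk fc sc rt.get INV isH)) 6 26432 = true := by decide +kernel
theorem b414 : allR (guardB 17026 (blk fc sc rt.get INV isH)) 6 26496 = true := by decide +kernel
theorem b415 : allR (guardB 17026 (blk fc sc rt.get INV isH)) 6 26560 = true := by decide +kernel

end Cfsg.Agent.Lib.Helper11.Fi24a
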