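import Cfsg.Agent.Lib.Helper11.Fi24a.Top

set_option autoImplicit false
set_option maxRecDepth 100000

namespace Cfsg.Agent.Lib.Helper11.Fi24a

set_option maxHeartbeats 0
theorem b416 : allR (guardB 17026 (blk fc sc rt.get INV isH)) 6 26624 = true := by decide +kernel
theorem b417 : allR (guardB 17026 (blk fc sc rt.get INV isH)) 6 26688 = true := by decide +kernel
theorem b418 : allR (guardB 17026 (blk fc sc rt.get INV isH)) 6 26752 = true := by decide +kernel
theorem b419 : allR (guardB 17026 (blk fc sc rt.get INV isH)) 6 26816 = true := by decide +kernel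
theorem b420 : allR (guardB 17026 (blk fc sc rt.get INV isH)) 6 26880 = true := by decide +kernel
theorem b421 : allR (guardB 17026 (blk fc sc rt.get INV isH)) 6 26944 = true := by decide +kernel
theorem b422 : allR (guardB 17026 (blk fc sc rt.get INV isH)) 6 27008 = true := by decide +kernel
theorem b423 : allR (guardB 17026 (blk fc sc rt.get INV isH)) 6 27072 = true := by decide +kernel

end Cfsg.Agent.Lib.Helper11.Fi24a
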