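import Cfsg.Agent.Lib.Helper11.Fi24a.Top

set_option autoImplicit false
set_option maxRecDepth 100000

namespace Cfsg.Agent.Lib.Helper11.Fi24a

set_option maxHeartbeats 0
theorem b424 : allR (guardB 17026 (blk fc sc rt.get INV isH)) 6 27136 = true := by decide +kernel
theorem b425 : allR (guardB 17026 (blk fc sc rt.get INV isH)) 6 27200 = true := by decide +kernel
theorem b426 : allR (guardB 17026 (blk fc sc rt.get INV isH)) 6 27264 = true := by decide +kernel
theorem b427 : allR (guardB 17026 (blk fc sc rt.get INV isH)) 6 27328 = true := by decide +kernel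
theorem b428 : allR (guardB 17026 (blk fc sc rt.get INV isH)) 6 27392 = true := by decide +kernel
theorem b429 : allR (guardB 17026 (blk fc sc rt.get INV isH)) 6 27456 = true := by decide +kernel
theorem b430 : allR (guardB 17026 (blk fc sc rt.get INV isH)) 6 27520 = true := by decide +kernel
theorem b431 : allR (guardB 17026 (blk fc sc rt.get INV isH)) 6 27584 = true := by decide +kernel

end Cfsg.Agent.Lib.Helper11.Fi24a
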