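import Cfsg.Agent.Lib.Helper11.Fi24a.Top

set_option autoImplicit false
set_option maxRecDepth 100000

namespace Cfsg.Agent.Lib.Helper11.Fi24a

set_option maxHeartbeats 0
theorem b432 : allR (guardB 17026 (blk fc sc rt.get INV isH)) 6 27648 = true := by decide +kernel
theorem b433 : allR (guardB 17026 (blk fc sc rt.get INV isH)) 6 27712 = true := by decide +kernel
theorem b434 : allR (guardB 17026 (blk fc sc rt.get INV isH)) 6 27776 = true := by decide +kernel
theorem b435 : allR (guardB 17026 (blk fc sc rt.get INV isH)) 6 27840 = true := by decide +kernel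
theorem b436 : allR (guardB 17026 (blk fc sc rt.get INV isH)) 6 27904 = true := by decide +kernel
theorem b437 : allR (guardB 17026 (blk fc sc rt.get INV isH)) 6 27968 = true := by decide +kernel
theorem b438 : allR (guardB 17026 (blk fc sc rt.get INV isH)) 6 28032 = true := by decide +kernel
theorem b439 : allR (guardB 17026 (blk fc sc rt.get INV isH)) 6 28096 = true := by decide +kernel

end Cfsg.Agent.Lib.Helper11.Fi24a
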