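import Cfsg.Agent.Lib.Helper11.Fi24a.Top

set_option autoImplicit false
set_option maxRecDepth 100000

namespace Cfsg.Agent.Lib.Helper11.Fi24a

set_option maxHeartbeats 0
theorem b440 : allR (guardB 17026 (blk fc sc rt.get INV isH)) 6 28160 = true := by decide +kernel
theorem b441 : allR (guardB 17026 (blk fc sc rt.get INV isH)) 6 28224 = true := by decide +kernel
theorem b442 : allR (guardB 17026 (blk fc sc rt.get INV isH)) 6 28288 = true := by decide +kernel
theorem b443 : allR (guardB 17026 (blk fc sc rt.get INV isH)) 6 28352 = true := by decide +kernel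
theorem b444 : allR (guardB 17026 (blk fc sc rt.get INV isH)) 6 28416 = true := by decide +kernel
theorem b445 : allR (guardB 17026 (blk fc sc rt.get INV isH)) 6 28480 = true := by decide +kernel
theorem b446 : allR (guardB 17026 (blk fc sc rt.get INV isH)) 6 28544 = true := by decide +kernel
theorem b447 : allR (guardB 17026 (blk fc sc rt.get INV isH)) 6 28608 = true := by decide +kernel

end Cfsg.Agent.Lib.Helper11.Fi24a
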