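import Cfsg.Agent.Lib.Helper11.Fi24a.Top

set_option autoImplicit false
set_option maxRecDepth 100000

namespace Cfsg.Agent.Lib.Helper11.Fi24a

set_option maxHeartbeats 0
theorem b448 : allR (guardB 17026 (blk fc sc rt.get INV isH)) 6 28672 = true := by decide +kernel
theorem b449 : allR (guardB 17026 (blk fc sc rt.get INV isH)) 6 28736 = true := by decide +kernel
theorem b450 : allR (guardB 17026 (blk fc sc rt.get INV isH)) 6 28800 = true := by decide +kernel
theorem b451 : allR (guardB 17026 (blk fc sc rt.get INV isH)) 6 28864 = true := by decide +kernel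
theorem b452 : allR (guardB 17026 (blk fc sc rt.get INV isH)) 6 28928 = true := by decide +kernel
theorem b453 : allR (guardB 17026 (blk fc sc rt.get INV isH)) 6 28992 = true := by decide +kernel
theorem b454 : allR (guardB 17026 (blk fc sc rt.get INV isH)) 6 29056 = true := by decide +kernel
theorem b455 : allR (guardB 17026 (blk fc sc rt.get INV isH)) 6 29120 = true := by decide +kernel

end Cfsg.Agent.Lib.Helper11.Fi24a
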