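import Cfsg.Agent.Lib.Helper11.Fi24a.Top

set_option autoImplicit false
set_option maxRecDepth 100000

namespace Cfsg.Agent.Lib.Helper11.Fi24a

set_option maxHeartbeats 0
theorem b456 : allR (guardB 17026 (blk fc sc rt.get INV isH)) 6 29184 = true := by decide +kernel
theorem b457 : allR (guardB 17026 (blk fc sc rt.get INV isH)) 6 29248 = true := by decide +kernel
theorem b458 : allR (guardB 17026 (blk fc sc rt.get INV isH)) 6 29312 = true := by decide +kernel
theorem b459 : allR (guardB 17026 (blk fc sc rt.get INV isH)) 6 29376 = true := by decide +kernel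
theorem b460 : allR (guardB 17026 (blk fc sc rt.get INV isH)) 6 29440 = true := by decide +kernel
theorem b461 : allR (guardB 17026 (blk fc sc rt.get INV isH)) 6 29504 = true := by decide +kernel
theorem b462 : allR (guardB 17026 (blk fc sc rt.get INV isH)) 6 29568 = true := by decide +kernel
theorem b463 : allR (guardB 17026 (blk fc sc rt.get INV isH)) 6 29632 = true := by decide +kernel

end Cfsg.Agent.Lib.Helper11.Fi24a
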