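import Cfsg.Agent.Lib.Helper11.Fi24a.Top

set_option autoImplicit false
set_option maxRecDepth 100000

namespace Cfsg.Agent.Lib.Helper11.Fi24a

set_option maxHeartbeats 0
theorem b464 : allR (guardB 17026 (blk fc sc rt.get INV isH)) 6 29696 = true := by decide +kernel
theorem b465 : allR (guardB 17026 (blk fc sc rt.get INV isH)) 6 29760 = true := by decide +kernel
theorem b466 : allR (guardB 17026 (blk fc sc rt.get INV isH)) 6 29824 = true := by decide +kernel
theorem b467 : allR (guardB 17026 (blk fc sc rt.get INV isH)) 6 29888 = true := by decide +kernel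
theorem b468 : allR (guardB 17026 (blk fc sc rt.get INV isH)) 6 29952 = true := by decide +kernel
theorem b469 : allR (guardB 17026 (blk fc sc rt.get INV isH)) 6 30016 = true := by decide +kernel
theorem b470 : allR (guardB 17026 (blk fc sc rt.get INV isH)) 6 30080 = true := by decide +kernel
theorem b471 : allR (guardB 17026 (blk fc sc rt.get INV isH)) 6 30144 = true := by decide +kernel

end Cfsg.Agent.Lib.Helper11.Fi24a
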