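import Cfsg.Agent.Lib.Helper11.Fi24a.Top

set_option autoImplicit false
set_option maxRecDepth 100000

namespace Cfsg.Agent.Lib.Helper11.Fi24a

set_option maxHeartbeats 0
theorem b472 : allR (guardB 17026 (blk fc sc rt.get INV isH)) 6 30208 = true := by decide +kernel
theorem b473 : allR (guardB 17026 (blk fc sc rt.get INV isH)) 6 30272 = true := by decide +kernel
theorem b474 : allR (guardB 17026 (blk fc sc rt.get INV isH)) 6 30336 = true := by decide +kernel
theorem b475 : allR (guardB 17026 (blk fc sc rt.get INV isH)) 6 30400 = true := by decide +kernel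
theorem b476 : allR (guardB 17026 (blk fc sc rt.get INV isH)) 6 30464 = true := by decide +kernel
theorem b477 : allR (guardB 17026 (blk fc sc rt.get INV isH)) 6 30528 = true := by decide +kernel
theorem b478 : allR (guardB 17026 (blk fc sc rt.get INV isH)) 6 30592 = true := by decide +kernel
theorem b479 : allR (guardB 17026 (blk fc sc rt.get INV isH)) 6 30656 = true := by decide +kernel

end Cfsg.Agent.Lib.Helper11.Fi24a
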