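import Cfsg.Agent.Lib.Helper11.Fi24a.Top

set_option autoImplicit false
set_option maxRecDepth 100000

namespace Cfsg.Agent.Lib.Helper11.Fi24a

set_option maxHeartbeats 0
theorem b480 : allR (guardB 17026 (blk fc sc rt.get INV isH)) 6 30720 = true := by decide +kernel
theorem b481 : allR (guardB 17026 (blk fc sc rt.get INV isH)) 6 30784 = true := by decide +kernel
theorem b482 : allR (guardB 17026 (blk fc sc rt.get INV isH)) 6 30848 = true := by decide +kernel
theorem b483 : allR (guardB 17026 (blk fc sc rt.get INV isH)) 6 30912 = true := by decide +kernel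
theorem b484 : allR (guardB 17026 (blk fc sc rt.get INV isH)) 6 30976 = true := by decide +kernel
theorem b485 : allR (guardB 17026 (blk fc sc rt.get INV isH)) 6 31040 = true := by decide +kernel
theorem b486 : allR (guardB 17026 (blk fc sc rt.get INV isH)) 6 31104 = true := by decide +kernel
theorem b487 : allR (guardB 17026 (blk fc sc rt.get INV isH)) 6 31168 = true := by decide +kernel

end Cfsg.Agent.Lib.Helper11.Fi24a
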