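import Cfsg.Agent.Lib.Helper11.Fi24a.Top

set_option autoImplicit false
set_option maxRecDepth 100000

namespace Cfsg.Agent.Lib.Helper11.Fi24a

set_option maxHeartbeats 0
theorem b488 : allR (guardB 17026 (blk fc sc rt.get INV isH)) 6 31232 = true := by decide +kernel
theorem b489 : allR (guardB 17026 (blk fc sc rt.get INV isH)) 6 31296 = true := by decide +kernel
theorem b490 : allR (guardB 17026 (blk fc sc rt.get INV isH)) 6 31360 = true := by decide +kernel
theorem b491 : allR (guardB 17026 (blk fc sc rt.get INV isH)) 6 31424 = true := by decide +kernel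
theorem b492 : allR (guardB 17026 (blk fc sc rt.get INV isH)) 6 31488 = true := by decide +kernel
theorem b493 : allR (guardB 17026 (blk fc sc rt.get INV isH)) 6 31552 = true := by decide +kernel
theorem b494 : allR (guardB 17026 (blk fc sc rt.get INV isH)) 6 31616 = true := by decide +kernel
theorem b495 : allR (guardB 17026 (blk fc sc rt.get INV isH)) 6 31680 = true := by decide +kernel

end Cfsg.Agent.Lib.Helper11.Fi24a
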