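import Cfsg.Agent.Lib.Helper11.Fi24a.Top

set_option autoImplicit false
set_option maxRecDepth 100000

namespace Cfsg.Agent.Lib.Helper11.Fi24a

set_option maxHeartbeats 0
theorem b496 : allR (guardB 17026 (blk fc sc rt.get INV isH)) 6 31744 = true := by decide +kernel
theorem b497 : allR (guardB 17026 (blk fc sc rt.get INV isH)) 6 31808 = true := by decide +kernel
theorem b498 : allR (guardB 17026 (blk fc sc rt.get INV isH)) 6 31872 = true := by decide +kernel
theorem b499 : allR (guardB 17026 (blk fc sc rt.get INV isH)) 6 31936 = true := by decide +kernel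
theorem b500 : allR (guardB 17026 (blk fc sc rt.get INV isH)) 6 32000 = true := by decide +kernel
theorem b501 : allR (guardB 17026 (blk fc sc rt.get INV isH)) 6 32064 = true := by decide +kernel
theorem b502 : allR (guardB 17026 (blk fc sc rt.get INV isH)) 6 32128 = true := by decide +kernel
theorem b503 : allR (guardB 17026 (blk fc sc rt.get INV isH)) 6 32192 = true := by decide +kernel

end Cfsg.Agent.Lib.Helper11.Fi24a
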