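import Cfsg.Agent.Lib.Helper11.Fi24a.Top

set_option autoImplicit false
set_option maxRecDepth 100000

namespace Cfsg.Agent.Lib.Helper11.Fi24a

set_option maxHeartbeats 0
theorem b504 : allR (guardB 17026 (blk fc sc rt.get INV isH)) 6 32256 = true := by decide +kernel
theorem b505 : allR (guardB 17026 (blk fc sc rt.get INV isH)) 6 32320 = true := by decide +kernel
theorem b506 : allR (guardB 17026 (blk fc sc rt.get INV isH)) 6 32384 = true := by decide +kernel
theorem b507 : allR (guardB 17026 (blk fc sc rt.get INV isH)) 6 32448 = true := by decide +kernel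
theorem b508 : allR (guardB 17026 (blk fc sc rt.get INV isH)) 6 32512 = true := by decide +kernel
theorem b509 : allR (guardB 17026 (blk fc sc rt.get INV isH)) 6 32576 = true := by decide +kernel
theorem b510 : allR (guardB 17026 (blk fc sc rt.get INV isH)) 6 32640 = true := by decide +kernel
theorem b511 : allR (guardB 17026 (blk fc sc rt.get INV isH)) 6 32704 = true := by decide +kernel

end Cfsg.Agent.Lib.Helper11.Fi24a
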