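import Cfsg.Agent.Lib.Helper11.Fi24a.Top

set_option autoImplicit false
set_option maxRecDepth 100000

namespace Cfsg.Agent.Lib.Helper11.Fi24a

set_option maxHeartbeats 0
theorem c16 : allR (guardB 9592 (cblk fc nc cc 4358656 306936 247330401473104534060502521019647190035131349101211839914063056092897225106531867170316401061243044989597671426016139339351365034306751209967546155101893167916606772148699136 gens)) 6 1024 = true := by decide +kernel
theorem c17 : allR (guardB 9592 (cblk fc nc cc 4358656 306936 247330401473104534060502521019647190035131349101211839914063056092897225106531867170316401061243044989597671426016139339351365034306751209967546155101893167916606772148699136 gens)) 6 1088 = true := by decide +kernel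
theorem c18 : allR (guardB 9592 (cblk fc nc cc 4358656 306936 247330401473104534060502521019647190035131349101211839914063056092897225106531867170316401061243044989597671426016139339351365034306751209967546155101893167916606772148699136 gens)) 6 1152 = true := by decide +kernel
theorem c19 : allR (guardB 9592 (cblk fc nc cc 4358656 306936 247330401473104534060502521019647190035131349101211839914063056092897225106531867170316401061243044989597671426016139339351365034306751209967546155101893167916606772148699136 gens)) 6 1216 = true := by decide +kernel
theorem c20 : allR (guardB 9592 (cblk fc nc cc 4358656 306936 247330401473104534060502521019647190035131349101211839914063056092897225106531867170316401061243044989597671426016139339351365034306751209967546155101893167916606772148699136 gens)) 6 1280 = true := by decide +kernel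
theorem c21 : allR (guardB 9592 (cblk fc nc cc 4358656 306936 247330401473104534060502521019647190035131349101211839914063056092897225106531867170316401061243044989597671426016139339351365034306751209967546155101893167916606772148699136 gens)) 6 1344 = true := by decide +kernel
theorem c22 : allR (guardB 9592 (cblk fc nc cc 4358656 306936 247330401473104534060502521019647190035131349101211839914063056092897225106531867170316401061243044989597671426016139339351365034306751209967546155101893167916606772148699136 gens)) 6 1408 = true := by decide +kernel
theorem c23 : allR (guardB 9592 (cblk fc nc cc 4358656 306936 247330401473104534060502521019647190035131349101211839914063056092897225106531867170316401061243044989597671426016139339351365034306751209967546155101893167916606772148699136 gens)) 6 1472 = true := by decide +kernel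

end Cfsg.Agent.Lib.Helper11.Fi24a
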