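import Cfsg.Agent.Lib.Helper11.Fi24a.Top

set_option autoImplicit false
set_option maxRecDepth 100000

namespace Cfsg.Agent.Lib.Helper11.Fi24a

set_option maxHeartbeats 0
theorem c24 : allR (guardB 9592 (cblk fc nc cc 4358656 306936 247330401473104534060502521019647190035131349101211839914063056092897225106531867170316401061243044989597671426016139339351365034306751209967546155101893167916606772148699136 gens)) 6 1536 = true := by decide +kernel
theorem c25 : allR (guardB 9592 (cblk fc nc cc 4358656 306936 247330401473104534060502521019647190035131349101211839914063056092897225106531867170316401061243044989597671426016139339351365034306751209967546155101893167916606772148699136 gens)) 6 1600 = true := by decide +kernel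
theorem c26 : allR (guardB 9592 (cblk fc nc cc 4358656 306936 247330401473104534060502521019647190035131349101211839914063056092897225106531867170316401061243044989597671426016139339351365034306751209967546155101893167916606772148699136 gens)) 6 1664 = true := by decide +kernel
theorem c27 : allR (guardB 9592 (cblk fc nc cc 4358656 306936 247330401473104534060502521019647190035131349101211839914063056092897225106531867170316401061243044989597671426016139339351365034306751209967546155101893167916606772148699136 gens)) 6 1728 = true := by decide +kernel
theorem c28 : allR (guardB 9592 (cblk fc nc cc 4358656 306936 247330401473104534060502521019647190035131349101211839914063056092897225106531867170316401061243044989597671426016139339351365034306751209967546155101893167916606772148699136 gens)) 6 1792 = true := by decide +kernel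
theorem c29 : allR (guardB 9592 (cblk fc nc cc 4358656 306936 247330401473104534060502521019647190035131349101211839914063056092897225106531867170316401061243044989597671426016139339351365034306751209967546155101893167916606772148699136 gens)) 6 1856 = true := by decide +kernel
theorem c30 : allR (guardB 9592 (cblk fc nc cc 4358656 306936 247330401473104534060502521019647190035131349101211839914063056092897225106531867170316401061243044989597671426016139339351365034306751209967546155101893167916606772148699136 gens)) 6 1920 = true := by decide +kernel
theorem c31 : allR (guardB 9592 (cblk fc nc cc 4358656 306936 247330401473104534060502521019647190035131349101211839914063056092897225106531867170316401061243044989597671426016139339351365034306751209967546155101893167916606772148699136 gens)) 6 1984 = true := by decide +kernel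

end Cfsg.Agent.Lib.Helper11.Fi24a
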