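import Cfsg.Agent.Lib.Helper11.Fi24a.Top

set_option autoImplicit false
set_option maxRecDepth 100000

namespace Cfsg.Agent.Lib.Helper11.Fi24a

set_option maxHeartbeats 0
theorem b64 : allR (guardB 17026 (blk fc sc rt.get INV isH)) 6 4096 = true := by decide +kernel
theorem b65 : allR (guardB 17026 (blk fc sc rt.get INV isH)) 6 4160 = true := by decide +kernel
theorem b66 : allR (guardB 17026 (blk fc sc rt.get INV isH)) 6 4224 = true := by decide +kernel
theorem b67 : allR (guardB 17026 (blk fc sc rt.get INV isH)) 6 4288 = true := by decide +kernel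
theorem b68 : allR (guardB 17026 (blk fc sc rt.get INV isH)) 6 4352 = true := by decide +kernel
theorem b69 : allR (guardB 17026 (blk fc sc rt.get INV isH)) 6 4416 = true := by decide +kernel
theorem b70 : allR (guardB 17026 (blk fc sc rt.get INV isH)) 6 4480 = true := by decide +kernel
theorem b71 : allR (guardB 17026 (blk fc sc rt.get INV isH)) 6 4544 = true := by decide +kernel

end Cfsg.Agent.Lib.Helper11.Fi24a
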